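/- The double cover of `F4(2)`. -/
import Cfsg.Agent.H65.EF42R0
import Cfsg.Agent.H65.EF42R1
set_option maxRecDepth 1000000
namespace H65.EF42C
open Cfsg Cfsg.Lie H71 H81 EF42T
theorem rel : RelM C tab 48 (St2.upTo chevF4 48) :=
  St2.step (St2.step (St2.step (St2.step (St2.step (St2.step (St2.step (St2.step (St2.step (St2.step (St2.step (St2.step (St2.step (St2.step (St2.step (St2.step (St2.step (St2.step (St2.step (St2.step (St2.step (St2.step (St2.step (St2.step (St2.step (St2.step (St2.step (St2.step (St2.step (St2.step (St2.step (St2.step (St2.step (St2.step (St2.step (St2.step (St2.step (St2.step (St2.step (St2.step (St2.step (St2.step (St2.step (St2.step (St2.step (St2.step (St2.step (St2.step (St2.relM_zero) EF42R0.r0) EF42R0.r1) EF42R0.r2) EF42R0.r3) EF42R0.r4) EF42R0.r5) EF42R0.r6) EF42R0.r7) EF42R0.r8) EF42R0.r9) EF42R0.r10) EF42R0.r11) EF42R0.r12) EF42R0.r13) EF42R0.r14) EF42R0.r15) EF42R0.r16) EF42R0.r17) EF42R0.r18) EF42R0.r19)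 EF42R0.r20) EF42R0.r21) EF42R0.r22) EF42R0.r23) EF42R1.r24) EF42R1.r25) EF42R1.r26) EF42R1.r27) EF42R1.r28) EF42R1.r29) EF42R1.r30) EF42R1.r31) EF42R1.r32) EF42R1.r33) EF42R1.r34) EF42R1.r35) EF42R1.r36) EF42R1.r37) EF42R1.r38) EF42R1.r39) EF42R1.r40) EF42R1.r41) EF42R1.r42) EF42R1.r43) EF42R1.r44) EF42R1.r45) EF42R1.r46) EF42R1.r47
theorem main : HasQ (chevF4.group (ZMod 2)) (Multiplicative (ZMod 2 × ZMod 1)) :=
  haveI := F42M.simple
  haveI : H63.RS chevF4 := H63.rsF4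
  haveI : H65.Tab chevF4 := H65.tabF4
  haveI : H65.Comm chevF4 := H65.commF4
  hasQ_of_cd C (S := List.range 48) (St2.pres chevF4) base rel (x := [35, 37, 24, 13, 28]) (y := [21, 31, 37, 7]) (x' := []) (y' := [])
    (by decide) c1 c2
end H65.EF42C
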