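import Cfsg.Agent.H54.SpExt
import Cfsg.Agent.H53.OClass

/-! The quadratic form `h(v, v)` of a Hermitian space over the fixed field. -/

set_option autoImplicit false

namespace H65.HQ

open QuadraticMap Matrix
open _root_.Module (finrank)

variable {K F : Type*} [Field K] [Field F] [Algebra F K]

/-- Data: an involution fixing exactly the subfield, and a retraction. -/
structure Dat (F : Type*) {K : Type*} [Field K] [Field F] [Algebra F K] (σ : K →+* K)
    (f : K →ₗ[F] F) : Prop where
  ne : σ ≠ RingHom.id K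
  inv : ∀ x, σ (σ x) = x
  fix : ∀ c, σ (algebraMap F K c) = algebraMap F K c
  ret : ∀ x, σ x = x → algebraMap F K (f x) = x
  rk : finrank F K = 2

variable {σ : K →+* K} {f : K →ₗ[F] F}

/-- The bilinear form. -/
def Dat.B (h : Dat F σ f) (ι : Type*) [Fintype ι] : LinearMap.BilinForm F (ι → K) :=
  LinearMap.mk₂ F (fun u v => f (∑ i, u i * σ (v i)))
    (fun u u' v => by simp [add_mul, Finset.sum_add_distrib])
    (fun a u v => by
      rw [← map_smul, Finset.smul_sum]; simp)
    (fun u v v' => by simp [mul_add, Finset.sum_add_distrib])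
    (fun a u v => by
      rw [← map_smul, Finset.smul_sum]
      simp [Algebra.smul_def, h.fix, mul_left_comm])

/-- The quadratic form. -/
def Dat.Q (h : Dat F σ f) (ι : Type*) [Fintype ι] : QuadraticForm F (ι → K) :=
  LinearMap.BilinMap.toQuadraticMap (h.B ι)

variable (h : Dat F σ f) {ι : Type*} [Fintype ι]

theorem Dat.Q_apply (v : ι → K) : h.Q ι v = f (∑ i, v i * σ (v i)) := rfl

theorem Dat.alg_Q (v : ι → K) : algebraMap F K (h.Q ι v) = ∑ i, v i * σ (v i) := by
  rw [h.Q_apply, h.ret]
  simp [map_sum, h.inv, mul_comm]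

theorem Dat.alg_polar (u v : ι → K) :
    algebraMap F K (polar (h.Q ι) u v) = ∑ i, (u i * σ (v i) + v i * σ (u i)) := by
  simp only [polar, map_sub, h.alg_Q, Pi.add_apply, map_add, ← Finset.sum_sub_distrib]
  exact Finset.sum_congr rfl fun i _ => by ring

theorem Dat.nondeg : (h.Q ι).polarBilin.Nondegenerate := by
  classical
  refine H56.nondegenerate_of_polar fun v hv => ?_
  funext i
  by_contra hne
  have hne' : v i ≠ 0 := hne
  obtain ⟨x, hx⟩ := H59.exists_trace_ne_zero h.ne
  have := h.alg_polar v (Pi.single i (x / σ (v i)))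
  rw [hv, map_zero, Finset.sum_eq_single i (fun j _ hj => by simp [Pi.single_eq_of_ne hj]) (by simp),
    Pi.single_eq_same, map_div₀, h.inv] at this
  have h2 : σ (v i) ≠ 0 := (map_ne_zero σ).2 hne'
  apply hx
  rw [this]; field_simp; ring

theorem Dat.finrank_eq (h : Dat F σ f) : finrank F (ι → K) = 2 * Fintype.card ι := by
  rw [← Module.finrank_mul_finrank F K, Module.finrank_fintype_fun_eq_card, h.rk]

theorem Dat.not_plus_one : ¬ H58.IsPlus (h.Q (Fin 1)) := by
  rintro ⟨U, h1, h2⟩
  rw [h.finrank_eq] at h1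
  have : U = ⊥ := by
    rw [eq_bot_iff]
    intro u hu
    have := h.alg_Q u
    rw [h2 u hu, map_zero, Fin.sum_univ_one, eq_comm, mul_eq_zero, map_eq_zero, or_self] at this
    rw [Submodule.mem_bot]
    funext i
    rw [Subsingleton.elim i 0]; exact this
  rw [this] at h1
  simp at h1

theorem Dat.isPlus_iff [Finite F] (m : ℕ) : H58.IsPlus (h.Q (Fin m)) ↔ Even m := by
  haveI : Module.Finite F K := Module.finite_of_finrank_pos (by rw [h.rk]; norm_num)
  induction m with
  | zero =>
    simp only [Even.zero, iff_true]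
    exact ⟨⊥, by rw [h.finrank_eq]; simp, fun u hu => by rw [(Submodule.mem_bot F).1 hu, map_zero]⟩
  | succ m ih =>
    let e : ((Fin 1 → K) × (Fin m → K)) ≃ₗ[F] (Fin (m + 1) → K) :=
      ((LinearEquiv.funUnique (Fin 1) F K).prodCongr (LinearEquiv.refl F _)).trans
        (Fin.consLinearEquiv F fun _ => K)
    have he : ∀ v, h.Q (Fin (m + 1)) (e v) = ((h.Q (Fin 1)).prod (h.Q (Fin m))) v := by
      intro v
      rw [QuadraticMap.prod_apply, h.Q_apply, h.Q_apply, h.Q_apply, ← map_add, Fin.sum_univ_succ,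
        Fin.sum_univ_one]
      rfl
    rw [H58.isPlus_congr e he, H53.isPlus_prod_iff h.nondeg h.nondeg (by rw [h.finrank_eq]; simp)
      (by rw [h.finrank_eq]; simp), Nat.even_add_one]
    have h1 := h.not_plus_one
    tauto

theorem exists_dat {K F : Type*} [Field K] [Fintype K] [Field F] [Fintype F] [Algebra F K] {q : ℕ}
    (hK : Fintype.card K = q ^ 2) (hF : Fintype.card F = q) :
    ∃ f : K →ₗ[F] F, Dat F (H59.frob hK) f := by
  obtain ⟨f, hf⟩ := (Algebra.linearMap F K).exists_leftInverse_of_injective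
    (LinearMap.ker_eq_bot.2 (algebraMap F K).injective)
  have hσ : ∀ c : F, H59.frob hK (algebraMap F K c) = algebraMap F K c := fun c => by
    rw [H59.frob_apply, ← map_pow, ← hF, FiniteField.pow_card]
  refine ⟨f, H59.frob_ne_id hK, H59.frob_frob hK, hσ, fun x hx => ?_,
    H54.finrank_eq_of_card_eq_pow (by rw [hK, hF])⟩
  let j : F → {x : K // x ^ q = x} := fun c => ⟨algebraMap F K c, hσ c⟩
  have hj : Function.Bijective j := by
    rw [Nat.bijective_iff_injective_and_card]
    exact ⟨fun a b e => (algebraMap F K).injective (congrArg Subtype.val e),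
      by rw [H59.card_fixed hK, Nat.card_eq_fintype_card, hF]⟩
  obtain ⟨c, hc⟩ := hj.2 ⟨x, hx⟩
  have hc' : algebraMap F K c = x := congrArg Subtype.val hc
  have : f (algebraMap F K c) = c := LinearMap.congr_fun hf c
  rw [← hc', this]

/-- The unitary group acts faithfully by isometries of the quadratic form. -/
theorem exists_hom {K F : Type*} [Field K] [Fintype K] [Field F] [Algebra F K] {q : ℕ}
    (hK : Fintype.card K = q ^ 2) {f : K →ₗ[F] F} (h : Dat F (H59.frob hK) f) (m : ℕ) :
    ∃ φ : Cfsg.GU m K q →* H56.O (h.Q (Fin m)), Function.Injective φ := by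
  let φ : Cfsg.GU m K q →* H56.O (h.Q (Fin m)) := MonoidHom.mk' (fun g =>
    H56.O.ofInv ((Matrix.toLin' g.1.val).restrictScalars F) ((Matrix.toLin' (g.1⁻¹).val).restrictScalars F)
      (fun x => congrArg f (g.2 x x))
      (fun x => by simp [Matrix.mulVec_mulVec]) (fun x => by simp [Matrix.mulVec_mulVec]))
    fun a b => H56.O.ext fun v => (Matrix.mulVec_mulVec v a.1.val b.1.val).symm
  refine ⟨φ, fun a b e => Subtype.ext (Units.ext (Matrix.toLin'.injective (LinearMap.ext fun v => ?_)))⟩
  exact congrArg (fun g : H56.O (h.Q (Fin m)) => g v) e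

end H65.HQ
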