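/- `H64.MatOK` for the seven data. -/
import Cfsg.Agent.H65.MatOK
import Cfsg.Agent.H65.All

namespace H65

open Cfsg.Lie H63

theorem matOK_of_mem {D : ChevalleyDatum}
    (hD : D ∈ [chevG2, chevB2, chevD4, chevF4, chevE6, chevE7, chevE8]) (F : Type*) [Field F] :
    ∃ (_ : RS D) (_ : Tab D), Comm D ∧ H64.MatOK D F := by
  obtain ⟨h1, h2, h3⟩ := of_mem hD
  exact ⟨h1, h2, h3, matOK D F⟩

end H65
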