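import Cfsg.Agent.Base

/-! Two-parts in finite fields of odd order. -/

set_option autoImplicit false

namespace H65.TwoPart

theorem split_two {n : ℕ} (hn : n ≠ 0) : ∃ k : ℕ, Odd k ∧ n = 2 ^ padicValNat 2 n * k := by
  obtain ⟨a, k, hk, e⟩ := Nat.exists_eq_two_pow_mul_odd hn
  refine ⟨k, hk, ?_⟩
  have : padicValNat 2 n = a := by
    rw [e, padicValNat.mul (by positivity) hk.pos.ne', padicValNat.prime_pow,
      padicValNat.eq_zero_of_not_dvd (by rcases hk with ⟨j, rfl⟩; omega), add_zero]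
  rw [this]; exact e

variable {F : Type*} [Field F] [Fintype F] {q : ℕ}

theorem neg_one_ne (hF : Fintype.card F = q) (hq : Odd q) : (-1 : F) ≠ 1 := by
  intro h
  have h2 : (2 : F) = 0 := by linear_combination -h
  have h3 : ((Fintype.card F : ℕ) : F) = 0 := FiniteField.cast_card_eq_zero F
  obtain ⟨j, hj⟩ := hq
  rw [hF, hj] at h3
  push_cast at h3
  rw [h2] at h3
  simp at h3

theorem two_le (hF : Fintype.card F = q) : 2 ≤ q := hF ▸ Fintype.one_lt_card

theorem val_pos (hF : Fintype.card F = q) (hq : Odd q) : 1 ≤ padicValNat 2 (q - 1) := by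
  have := two_le hF
  apply one_le_padicValNat_of_dvd (by omega)
  obtain ⟨j, hj⟩ := hq
  omega

theorem pow_q (hF : Fintype.card F = q) {c : F} (hc : c ≠ 0) : c ^ (q - 1) = 1 := by
  rw [← hF]; exact FiniteField.pow_card_sub_one_eq_one c hc

theorem half_pow {μ : F} {b : ℕ} (hb : 1 ≤ b) (hμ : orderOf μ = 2 ^ b) : μ ^ 2 ^ (b - 1) = -1 := by
  have h1 : (μ ^ 2 ^ (b - 1)) ^ 2 = 1 := by
    rw [← pow_mul, ← pow_succ, Nat.sub_add_cancel hb, ← hμ, pow_orderOf_eq_one]
  have h2 : μ ^ 2 ^ (b - 1) ≠ 1 := by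
    apply pow_ne_one_of_lt_orderOf (by positivity)
    rw [hμ]; exact Nat.pow_lt_pow_right (by norm_num) (by omega)
  rcases sq_eq_one_iff_of_ne_zero_or h1 with h | h
  all_goals first | exact absurd h h2 | exact h
where
  sq_eq_one_iff_of_ne_zero_or {x : F} (h : x ^ 2 = 1) : x = 1 ∨ x = -1 := by
    have : (x - 1) * (x + 1) = 0 := by linear_combination h
    rcases mul_eq_zero.1 this with h | h
    · left; linear_combination h
    · right; linear_combination h

theorem exists_order (hF : Fintype.card F = q) {d : ℕ} (hd : d ∣ q - 1) : ∃ μ : F, orderOf μ = d := by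
  classical
  obtain ⟨g, hg⟩ := IsCyclic.exists_generator (α := Fˣ)
  have ho : orderOf g = q - 1 := by
    rw [orderOf_eq_card_of_forall_mem_zpowers hg, Nat.card_eq_fintype_card, Fintype.card_units, hF]
  have := two_le hF
  obtain ⟨e, he⟩ := hd
  have he0 : e ≠ 0 := by rintro rfl; omega
  refine ⟨((g ^ e : Fˣ) : F), ?_⟩
  rw [orderOf_units, orderOf_pow_of_dvd he0 (by rw [ho, he]; exact Dvd.intro_left _ rfl), ho, he,
    Nat.mul_div_cancel _ (Nat.pos_of_ne_zero he0)]

/-- `-1` is an `n`-th power exactly when the two-part of `n` is smaller than that of `q - 1`. -/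
theorem neg_one_pow_iff (hF : Fintype.card F = q) (hq : Odd q) {n : ℕ} (hn : n ≠ 0) :
    (∃ c : F, c ≠ 0 ∧ c ^ n = -1) ↔ padicValNat 2 n < padicValNat 2 (q - 1) := by
  have h2 := two_le hF
  obtain ⟨n', hn', en⟩ := split_two hn
  obtain ⟨N', hN', eN⟩ := split_two (n := q - 1) (by omega)
  set a := padicValNat 2 n
  set b := padicValNat 2 (q - 1)
  constructor
  · rintro ⟨c, hc, h⟩
    by_contra hlt
    push Not at hlt
    have h1 : c ^ (n * N') = 1 := by
      have : n * N' = (q - 1) * (2 ^ (a - b) * n') := by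
        rw [en, eN]
        have : 2 ^ a = 2 ^ b * 2 ^ (a - b) := by rw [← pow_add]; congr 1; omega
        rw [this]; ring
      rw [this, pow_mul, pow_q hF hc, one_pow]
    rw [pow_mul, h, hN'.neg_one_pow] at h1
    exact neg_one_ne hF hq h1
  · intro hlt
    obtain ⟨μ, hμ⟩ := exists_order hF (d := 2 ^ (a + 1)) (by
      rw [eN]; exact Dvd.dvd.mul_right (pow_dvd_pow 2 hlt) _)
    have h3 := half_pow (by omega) hμ
    rw [Nat.add_sub_cancel] at h3
    refine ⟨μ, ?_, ?_⟩
    · rintro rfl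
      rw [zero_pow (by positivity)] at h3
      simp at h3
    · rw [en, pow_mul, h3, hn'.neg_one_pow]

end H65.TwoPart
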